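import Mathlib
import Cfsg.Agent.Lib.Helper79.CS3.EndDefs

/-!
# CS3 (S4284), part END: packages [E0], [E1], [E4], [E6]
-/

set_option autoImplicit false

namespace Cfsg.Agent.Lib.Helper1.CS3

open Cfsg.Agent.Lib.Helper81.CS3 Cfsg.Agent.Lib.Helper79.CS3

universe u

section

variable {G : Type u} [Group G]

/-- the class sizes are `1`, `m`, `m * n` -/
theorem idx_cases3 {m n : ℕ} (hyp : Hyp G m n) (x : G) :
    (Subgroup.centralizer ({x} : Set G)).index = 1 ∨
      (Subgroup.centralizer ({x} : Set G)).index = m ∨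
      (Subgroup.centralizer ({x} : Set G)).index = m * n := by
  have h : (Subgroup.centralizer ({x} : Set G)).index ∈
      Set.range (fun x : G => (Subgroup.centralizer ({x} : Set G)).index) := ⟨x, rfl⟩
  rw [hyp.2.2.2.2] at h
  simpa using h

/-- `g ∈ C(x) ↔ g x = x g` -/
theorem mem_cent_single (x g : G) :
    g ∈ Subgroup.centralizer ({x} : Set G) ↔ g * x = x * g := by
  rw [Subgroup.mem_centralizer_iff]
  constructor
  · intro h
    exact (h x rfl).symm
  · intro h y hy
    rw [Set.mem_singleton_iff] at hy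
    subst hy
    exact h.symm

/-- `|Q : C ⊓ Q|` divides `|G : C|` for `Q` normal -/
theorem relIndex_dvd_index_of_normal_right [Finite G] (C Q : Subgroup G) [Q.Normal] :
    C.relIndex Q ∣ C.index := by
  have e1 : (C ⊓ Q).relIndex C * C.index = (C ⊓ Q).index := Subgroup.relIndex_mul_index inf_le_left
  have e2 : (C ⊓ Q).relIndex Q * Q.index = (C ⊓ Q).index :=
    Subgroup.relIndex_mul_index inf_le_right
  rw [Subgroup.inf_relIndex_left] at e1
  rw [Subgroup.inf_relIndex_right] at e2
  have e3 : Q.relIndex (C ⊔ Q) * (C ⊔ Q).index = Q.index :=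
    Subgroup.relIndex_mul_index le_sup_right
  rw [Subgroup.relIndex_sup_right] at e3
  have hne : Q.relIndex C ≠ 0 := Subgroup.index_ne_zero_of_finite
  have e4 : Q.relIndex C * (C.relIndex Q * (C ⊔ Q).index) = Q.relIndex C * C.index := by
    rw [e1, ← e2, ← e3]
    ring
  have e5 := Nat.eq_of_mul_eq_mul_left (Nat.pos_of_ne_zero hne) e4
  exact Dvd.intro _ e5

/-- the index of a complement of a normal subgroup -/
theorem index_compl_eq_card (Q P : Subgroup G) [Q.Normal] (hinf : Q ⊓ P = ⊥)
    (hsup : Q ⊔ P = ⊤) : P.index = Nat.card Q :=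
  (Subgroup.isComplement'_of_disjoint_and_mul_eq_univ (disjoint_iff.mpr hinf)
    (by rw [← Subgroup.normal_mul, hsup]; rfl)).index_eq_card

end

/-- [E0] -/
theorem pkgE0_of (hB0 : PkgB0.{u}) : PkgE0.{u} := by
  intro G _ _ m n hyp Q hQn hQm hQi
  constructor
  · by_contra h
    obtain ⟨r, hr, h1, h2⟩ := Nat.Prime.not_coprime_iff_dvd.mp h
    have hrG : r ∣ Nat.card G := h1.trans (Subgroup.card_subgroup_dvd_card Q)
    have hrmn := hB0 m n hyp r hr hrG
    rcases (Nat.Prime.dvd_mul hr).mp hrmn with h3 | h3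
    · have := Nat.dvd_gcd h1 h3
      rw [hQm.gcd_eq_one] at this
      exact hr.one_lt.ne' (Nat.dvd_one.mp this)
    · have := Nat.dvd_gcd h2 h3
      rw [hQi.gcd_eq_one] at this
      exact hr.one_lt.ne' (Nat.dvd_one.mp this)
  · rintro rfl
    rw [Subgroup.index_bot] at hQi
    have hmn : m * n ∈ ({1, m, m * n} : Set ℕ) := by simp
    rw [← hyp.2.2.2.2] at hmn
    obtain ⟨x, hx⟩ := hmn
    have hx' : (Subgroup.centralizer ({x} : Set G)).index = m * n := hx
    have hn : n ∣ Nat.card G := by
      have h1 := Subgroup.index_dvd_card (Subgroup.centralizer ({x} : Set G))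
      rw [hx'] at h1
      exact (dvd_mul_left n m).trans h1
    have := Nat.dvd_gcd hn (dvd_refl n)
    rw [hQi.gcd_eq_one] at this
    exact hyp.2.2.1.ne' (Nat.dvd_one.mp this)

/-- [E1] -/
theorem pkgE1 : PkgE1.{u} := by
  intro G _ _ m n Q L hS x
  have hyp := hS.hyp
  haveI := hS.qn
  have hcases := idx_cases3 hyp x
  constructor
  · intro hx
    have hQC : Q ≤ Subgroup.centralizer ({x} : Set G) := by
      intro q hq
      rw [mem_cent_single]
      exact (Subgroup.mem_centralizer_iff.mp hx) q hq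
    have hdvd := Subgroup.index_dvd_of_le hQC
    rcases hcases with h | h | h
    · left; exact h
    · right; exact h
    · exfalso
      rw [h] at hdvd
      have hn : n ∣ Q.index := (dvd_mul_left n m).trans hdvd
      have := Nat.dvd_gcd hn (dvd_refl n)
      rw [hS.qi.gcd_eq_one] at this
      exact hyp.2.2.1.ne' (Nat.dvd_one.mp this)
  · intro hx
    have hdm : (Subgroup.centralizer ({x} : Set G)).index ∣ m := by
      rcases hx with h | h
      · rw [h]; exact one_dvd m
      · rw [h]
    have h1 := relIndex_dvd_index_of_normal_right (Subgroup.centralizer ({x} : Set G)) Q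
    have h2 : (Subgroup.centralizer ({x} : Set G)).relIndex Q ∣ Nat.card Q :=
      Subgroup.relIndex_dvd_card _ _
    have h3 : (Subgroup.centralizer ({x} : Set G)).relIndex Q = 1 := by
      have := Nat.dvd_gcd h2 (h1.trans hdm)
      rw [hS.qm.gcd_eq_one] at this
      exact Nat.dvd_one.mp this
    rw [Subgroup.relIndex_eq_one] at h3
    rw [Subgroup.mem_centralizer_iff]
    intro q hq
    exact (mem_cent_single x q).mp (h3 hq)

/-- [E4] -/
theorem pkgE4_of (hE0 : PkgE0.{u}) : PkgE4.{u} := by
  intro G _ _ m n Q L hS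
  have hyp := hS.hyp
  haveI := hS.qn
  have hQne := (hE0 m n hyp Q hS.qn hS.qm hS.qi).2
  have h1 : ¬ (L ≤ Subgroup.centralizer (Q : Set G)) := by
    intro hL
    apply hQne
    have hLn : L.Normal := by
      rw [← Subgroup.normalizer_eq_top_iff, eq_top_iff, ← hS.sup]
      apply sup_le
      · intro q hq
        apply Subgroup.centralizer_le_normalizer
        rw [Subgroup.mem_centralizer_iff]
        intro l hl
        exact ((Subgroup.mem_centralizer_iff.mp (hL hl)) q hq).symm
      · exact Subgroup.le_normalizer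
    exact hyp.1 Q L hS.qn hLn hS.inf hS.sup ⟨⟨fun a b => Subtype.ext (hS.qc a a.2 b b.2)⟩⟩
  refine ⟨h1, ?_⟩
  by_contra hcon
  apply h1
  intro l hl
  rw [Subgroup.mem_centralizer_iff]
  intro q hq
  have hqc : q ∈ Subgroup.center G := by
    by_contra hq'
    exact hcon ⟨q, hq, hq'⟩
  exact ((Subgroup.mem_center_iff.mp hqc) l).symm

/-- [E6] -/
theorem pkgE6 : PkgE6.{u} := by
  intro G _ _ m n Q P p hS x hxP hcomm
  have hS0 := hS.s0
  have hyp := hS0.hyp
  haveI := hS0.qn
  have hPC : P ≤ Subgroup.centralizer ({x} : Set G) := by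
    intro y hy
    rw [mem_cent_single]
    exact (hcomm y hy).symm
  have hidx : P.index = Nat.card Q := index_compl_eq_card Q P hS0.inf hS0.sup
  have hdvd : (Subgroup.centralizer ({x} : Set G)).index ∣ Nat.card Q :=
    hidx ▸ Subgroup.index_dvd_of_le hPC
  have hcop : ∀ k, m ∣ k → k ∣ Nat.card Q → False := by
    intro k h1 h2
    have := Nat.dvd_gcd (h1.trans h2) (dvd_refl m)
    rw [hS0.qm.gcd_eq_one] at this
    exact hyp.2.1.ne' (Nat.dvd_one.mp this)
  rcases idx_cases3 hyp x with h | h | h
  · rw [Subgroup.index_eq_one] at h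
    rw [Subgroup.mem_center_iff]
    intro g
    have hg : g ∈ Subgroup.centralizer ({x} : Set G) := by
      rw [h]
      exact Subgroup.mem_top g
    exact (mem_cent_single x g).mp hg
  · exact (hcop _ (by rw [h]) hdvd).elim
  · exact (hcop _ (by rw [h]; exact dvd_mul_right m n) hdvd).elim

end Cfsg.Agent.Lib.Helper1.CS3
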