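import Mathlib
import Cfsg.Agent.Lib.Helper79.CS3.EndDefs
import Cfsg.Agent.Lib.Helper1.CS3.EndE0

/-!
# CS3 (S4284), part END: package [I1]
-/

set_option autoImplicit false

namespace Cfsg.Agent.Lib.Helper1.CS3

open Cfsg.Agent.Lib.Helper81.CS3 Cfsg.Agent.Lib.Helper79.CS3

universe u

/-- `|X| * |P : X| = |P|` in the `relIndex` form -/
theorem card_inf_mul_relIndex {G : Type u} [Group G] (H P : Subgroup G) :
    Nat.card ↥(H ⊓ P) * H.relIndex P = Nat.card P := by
  have h := Subgroup.relIndex_mul_relIndex ⊥ (H ⊓ P) P bot_le inf_le_right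
  rw [Subgroup.relIndex_bot_left, Subgroup.relIndex_bot_left, Subgroup.inf_relIndex_right] at h
  exact h

/-- subgroups with `H ⊓ P ≤ K ⊓ P` and the same relative index in `P` have the same trace
on `P` -/
theorem inf_le_of_relIndex_eq {G : Type u} [Group G] [Finite G] (H K P : Subgroup G)
    (hle : H ⊓ P ≤ K ⊓ P) (h : H.relIndex P = K.relIndex P) : K ⊓ P ≤ H ⊓ P := by
  have e1 := card_inf_mul_relIndex H P
  have e2 := card_inf_mul_relIndex K P
  have hne : K.relIndex P ≠ 0 := Subgroup.index_ne_zero_of_finite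
  rw [h, ← e2] at e1
  have e3 := Nat.eq_of_mul_eq_mul_right (Nat.pos_of_ne_zero hne) e1
  exact (Subgroup.eq_of_le_of_card_ge hle e3.symm.le).symm.le

/-- [I1] -/
theorem pkgI1_of (hE1 : PkgE1.{u}) (hE4 : PkgE4.{u}) (hE5a : PkgE5a.{u}) (hE7 : PkgE7.{u}) :
    PkgI1.{u} := by
  intro G _ _ m n Q P p hS hI
  have hS0 := hS.s0
  have hrel : ∀ a ∈ P, a ∈ Subgroup.centralizer (Q : Set G) → a ∉ Subgroup.center G →
      (Subgroup.centralizer ({a} : Set G)).relIndex P = m := by
    intro a haP haQ haZ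
    have h1 := (hE1 m n Q P hS0 a).mp haQ
    have h2 := (hE5a m n Q P hS0 a haP).1 haQ
    rcases h1 with h1 | h1
    · exfalso
      apply haZ
      rw [Subgroup.index_eq_one] at h1
      rw [Subgroup.mem_center_iff]
      intro g
      have hg : g ∈ Subgroup.centralizer ({a} : Set G) := by
        rw [h1]
        exact Subgroup.mem_top g
      exact (mem_cent_single a g).mp hg
    · rw [h2, h1]
  have h4 : ∀ a ∈ P, a ∈ Subgroup.centralizer (Q : Set G) → a ∉ Subgroup.center G →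
      ∀ g ∈ P, g * a = a * g → g ∈ Subgroup.centralizer (Q : Set G) := by
    intro a haP haQ haZ g hgP hga
    rw [Subgroup.mem_centralizer_iff]
    intro q hq
    by_cases hqZ : q ∈ Subgroup.center G
    · exact ((Subgroup.mem_center_iff.mp hqZ) g).symm
    · obtain ⟨hq1, hq2⟩ := hE7 m n Q P p hS q hq hqZ
      have haq : a * q = q * a := ((Subgroup.mem_centralizer_iff.mp haQ) q hq).symm
      have hle : Subgroup.centralizer ({q} : Set G) ⊓ P ≤
          Subgroup.centralizer ({a} : Set G) ⊓ P := by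
        intro u hu
        obtain ⟨hu1, hu2⟩ := Subgroup.mem_inf.mp hu
        refine Subgroup.mem_inf.mpr ⟨?_, hu2⟩
        rw [mem_cent_single] at hu1 ⊢
        exact hq2 u hu2 hu1 a haP haq
      have hge := inf_le_of_relIndex_eq _ _ P hle (by rw [hq1, hrel a haP haQ haZ])
      have hg : g ∈ Subgroup.centralizer ({q} : Set G) ⊓ P :=
        hge (Subgroup.mem_inf.mpr ⟨(mem_cent_single a g).mpr hga, hgP⟩)
      exact ((mem_cent_single q g).mp (Subgroup.mem_inf.mp hg).1).symm
  obtain ⟨a, haP, haQ, haZ⟩ := hI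
  obtain ⟨-, y₀, hy₀, hy₀Z⟩ := hE4 m n Q P hS0
  obtain ⟨hy1, hy2⟩ := hE7 m n Q P p hS y₀ hy₀ hy₀Z
  have h2 : ∀ u ∈ P, u ∈ Subgroup.centralizer (Q : Set G) → ∀ v ∈ P,
      v ∈ Subgroup.centralizer (Q : Set G) → u * v = v * u := by
    intro u hu huQ v hv hvQ
    exact hy2 u hu ((Subgroup.mem_centralizer_iff.mp huQ) y₀ hy₀).symm v hv
      ((Subgroup.mem_centralizer_iff.mp hvQ) y₀ hy₀).symm
  refine ⟨?_, h2, ?_, h4⟩
  · have heq : Subgroup.centralizer (Q : Set G) ⊓ P =
        Subgroup.centralizer ({a} : Set G) ⊓ P := by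
      apply le_antisymm
      · intro u hu
        obtain ⟨hu1, hu2⟩ := Subgroup.mem_inf.mp hu
        exact Subgroup.mem_inf.mpr ⟨(mem_cent_single a u).mpr (h2 u hu2 hu1 a haP haQ), hu2⟩
      · intro u hu
        obtain ⟨hu1, hu2⟩ := Subgroup.mem_inf.mp hu
        exact Subgroup.mem_inf.mpr
          ⟨h4 a haP haQ haZ u hu2 ((mem_cent_single a u).mp hu1), hu2⟩
    rw [← Subgroup.inf_relIndex_right, heq, Subgroup.inf_relIndex_right]
    exact hrel a haP haQ haZ
  · intro y hy hyZ g hg hgy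
    obtain ⟨-, hyab⟩ := hE7 m n Q P p hS y hy hyZ
    have hay : a * y = y * a := ((Subgroup.mem_centralizer_iff.mp haQ) y hy).symm
    exact h4 a haP haQ haZ g hg (hyab g hg hgy a haP hay)

end Cfsg.Agent.Lib.Helper1.CS3
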