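import Mathlib
import Cfsg.Agent.Lib.Helper79.CS3.EndDefs
import Cfsg.Agent.Lib.Helper1.CS3.EndE0
import Cfsg.Agent.Lib.Helper1.CS3.EndI1

/-!
# CS3 (S4284), part END: package [II12]
-/

set_option autoImplicit false

namespace Cfsg.Agent.Lib.Helper1.CS3

open Cfsg.Agent.Lib.Helper81.CS3 Cfsg.Agent.Lib.Helper79.CS3

universe u

/-- [II12] -/
theorem pkgII12_of (hE4 : PkgE4.{u}) (hE5a : PkgE5a.{u}) (hE7 : PkgE7.{u}) (hB3 : PkgB3.{u}) :
    PkgII12.{u} := by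
  intro G _ _ m n Q P p hS hII w hwP hwZ
  have hS0 := hS.s0
  have hyp := hS0.hyp
  have hnc : ∀ v ∈ P, v ∉ Subgroup.center G → v ∉ Subgroup.centralizer (Q : Set G) :=
    fun v hv hvZ hvQ => hvZ (hII v hv hvQ)
  obtain ⟨hw1, hw2, hw3⟩ := (hE5a m n Q P hS0 w hwP).2 (hnc w hwP hwZ)
  obtain ⟨-, y₀, hy₀, hy₀Z⟩ := hE4 m n Q P hS0
  obtain ⟨hy₀1, -⟩ := hE7 m n Q P p hS y₀ hy₀ hy₀Z
  have hcen : ∀ z ∈ Subgroup.center G, ∀ g : G, z * g = g * z :=
    fun z hz g => ((Subgroup.mem_center_iff.mp hz) g).symm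
  obtain ⟨w', hw'P, hw'y, hw'Z⟩ : ∃ w' ∈ P, w' * y₀ = y₀ * w' ∧ w' ∉ Subgroup.center G := by
    by_contra hcon
    have hall : ∀ u ∈ P, u * y₀ = y₀ * u → u ∈ Subgroup.center G := by
      intro u hu huy
      by_contra huZ
      exact hcon ⟨u, hu, huy, huZ⟩
    have hle : Subgroup.centralizer ({y₀} : Set G) ⊓ P ≤
        Subgroup.centralizer ({w} : Set G) ⊓ P := by
      intro u hu
      obtain ⟨hu1, hu2⟩ := Subgroup.mem_inf.mp hu
      refine Subgroup.mem_inf.mpr ⟨?_, hu2⟩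
      rw [mem_cent_single] at hu1 ⊢
      exact hcen u (hall u hu2 hu1) w
    have hge := inf_le_of_relIndex_eq _ _ P hle (by rw [hy₀1, hw1])
    have hw' : w ∈ Subgroup.centralizer ({y₀} : Set G) ⊓ P :=
      hge (Subgroup.mem_inf.mpr ⟨(mem_cent_single w w).mpr rfl, hwP⟩)
    exact hwZ (hall w hwP ((mem_cent_single y₀ w).mp (Subgroup.mem_inf.mp hw').1))
  obtain ⟨-, hw'2, -⟩ := (hE5a m n Q P hS0 w' hw'P).2 (hnc w' hw'P hw'Z)
  obtain ⟨y, hyQ, hyw, hyZ⟩ : ∃ y ∈ Q, y * w = w * y ∧ y ∉ Subgroup.center G := by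
    by_contra hcon
    have hall : ∀ u ∈ Q, u * w = w * u → u ∈ Subgroup.center G := by
      intro u hu huy
      by_contra huZ
      exact hcon ⟨u, hu, huy, huZ⟩
    have hle : Subgroup.centralizer ({w} : Set G) ⊓ Q ≤
        Subgroup.centralizer ({w'} : Set G) ⊓ Q := by
      intro u hu
      obtain ⟨hu1, hu2⟩ := Subgroup.mem_inf.mp hu
      refine Subgroup.mem_inf.mpr ⟨?_, hu2⟩
      rw [mem_cent_single] at hu1 ⊢
      exact hcen u (hall u hu2 hu1) w'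
    have hge := inf_le_of_relIndex_eq _ _ Q hle (by rw [hw2, hw'2])
    have hy' : y₀ ∈ Subgroup.centralizer ({w} : Set G) ⊓ Q :=
      hge (Subgroup.mem_inf.mpr ⟨(mem_cent_single w' y₀).mpr hw'y.symm, hy₀⟩)
    exact hy₀Z (hall y₀ hy₀ ((mem_cent_single w y₀).mp (Subgroup.mem_inf.mp hy').1))
  obtain ⟨j, hj⟩ := hS.pm
  have hj0 : j ≠ 0 := by
    rintro rfl
    rw [pow_zero] at hj
    exact hyp.2.1.ne' hj
  have hpm : p ∣ m := by
    rw [hj]
    exact dvd_pow_self p hj0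
  obtain ⟨k, hk⟩ := hS.pg ⟨w, hwP⟩
  have hwk : orderOf w ∣ p ^ k := by
    apply orderOf_dvd_of_pow_eq_one
    have := congrArg Subtype.val hk
    simpa using this
  have hyord : orderOf y ∣ Nat.card Q := Subgroup.orderOf_dvd_natCard Q hyQ
  have hcop1 : (Nat.card Q).Coprime p := Nat.Coprime.coprime_dvd_right hpm hS0.qm
  have hcop : (orderOf w).Coprime (orderOf y) :=
    Nat.Coprime.coprime_dvd_left hwk
      (Nat.Coprime.coprime_dvd_right hyord (hcop1.symm.pow_left k))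
  have hCle := hB3 m n hyp w y hw3 hyw.symm hcop
  obtain ⟨hy1, hy2⟩ := hE7 m n Q P p hS y hyQ hyZ
  have hle : Subgroup.centralizer ({w} : Set G) ⊓ P ≤ Subgroup.centralizer ({y} : Set G) ⊓ P :=
    inf_le_inf_right P hCle
  have hge := inf_le_of_relIndex_eq _ _ P hle (by rw [hw1, hy1])
  have hiff : ∀ g ∈ P, (g * w = w * g ↔ g * y = y * g) := by
    intro g hg
    constructor
    · intro h
      have := hle (Subgroup.mem_inf.mpr ⟨(mem_cent_single w g).mpr h, hg⟩)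
      exact (mem_cent_single y g).mp (Subgroup.mem_inf.mp this).1
    · intro h
      have := hge (Subgroup.mem_inf.mpr ⟨(mem_cent_single y g).mpr h, hg⟩)
      exact (mem_cent_single w g).mp (Subgroup.mem_inf.mp this).1
  refine ⟨hw1, ?_, y, hyQ, hyZ, hiff⟩
  intro u hu huw v hv hvw
  exact hy2 u hu ((hiff u hu).mp huw) v hv ((hiff v hv).mp hvw)

end Cfsg.Agent.Lib.Helper1.CS3
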